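import Cfsg.Agent.PrimeAction.FrobeniusNilpotent
import Cfsg.Agent.CoprimeAction.Abelian
import Cfsg.Agent.CoprimeAction.Basic
import Cfsg.Agent.CoprimeAction.Frattini

/-!
A Frobenius group `K R` acting coprimely on a `q`-group `Q`, `K` nontrivially, with cyclic fixed points of `R`.
-/

set_option autoImplicit false
set_option linter.unusedSectionVars false
set_option linter.style.haveILetI false

namespace CfsgLib.BGFifteen

open scoped commutatorElement

universe u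

variable {G : Type u} [Group G] [Finite G]

theorem frobenius_on_abelian {K R V : Subgroup G} [IsMulCommutative V] (hR1 : R ≠ ⊥) (hKR : K ⊓ R = ⊥)
    (hRK : R ≤ Subgroup.normalizer (K : Set G)) (hfrob : ∀ r ∈ R, r ≠ 1 → K ⊓ Subgroup.centralizer ({r} : Set G) = ⊥)
    (hKV : K ≤ Subgroup.normalizer (V : Set G)) (hRV : R ≤ Subgroup.normalizer (V : Set G))
    (hcop : (Nat.card ↥(K ⊔ R)).Coprime (Nat.card V)) (hnc : ¬ K ≤ Subgroup.centralizer (V : Set G))
    (hpr : ∀ x ∈ R, x ≠ 1 → V ⊓ Subgroup.centralizer ({x} : Set G) = V ⊓ Subgroup.centralizer (R : Set G))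
    (hcyc : IsCyclic ↥(V ⊓ Subgroup.centralizer (R : Set G))) :
    (Nat.card R).Prime ∧ ⁅K, K⁆ ≤ Subgroup.centralizer (V : Set G) ∧
      V ⊓ Subgroup.centralizer (R : Set G) ≠ ⊥ := by
  have hK1 : K ≠ ⊥ := fun h => hnc (h ▸ bot_le)
  have hcopK : (Nat.card K).Coprime (Nat.card V) := hcop.coprime_dvd_left (Subgroup.card_dvd_of_le le_sup_left)
  have hsolv : Group.IsSolvable V := by
    letI : CommGroup V := { (inferInstance : Group V) with mul_comm := fun a b => mul_comm' a b }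
    infer_instance
  have hsup := CoprimeAction.commutator_sup_centralizer hKV hcopK (Or.inr hsolv)
  set W := ⁅V, K⁆ with hW
  have hWV : W ≤ V := CoprimeAction.commutator_le_of_normalizer hKV
  have hW1 : W ≠ ⊥ := fun h => hnc (Subgroup.le_centralizer_iff.1 (by
    rw [← hsup, h, bot_sup_eq]; exact inf_le_right))
  haveI : IsMulCommutative W := ⟨⟨fun a b => Subtype.ext
    (congrArg Subtype.val (mul_comm' (⟨(a : G), hWV a.2⟩ : V) ⟨(b : G), hWV b.2⟩) : (a : G) * b = b * a)⟩⟩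
  have hWn : Group.IsNilpotent W := by
    letI : CommGroup W := { (inferInstance : Group W) with mul_comm := fun a b => mul_comm' a b }
    infer_instance
  have hKW : K ≤ Subgroup.normalizer (W : Set G) := CoprimeAction.le_normalizer_commutator hKV
  have hRW : R ≤ Subgroup.normalizer (W : Set G) := by
    intro x hx
    rw [hW, Subgroup.mem_normalizer_iff_map_conj_eq, Subgroup.map_commutator,
      Subgroup.mem_normalizer_iff_map_conj_eq.1 (hRV hx), Subgroup.mem_normalizer_iff_map_conj_eq.1 (hRK hx)]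
  have hCW : W ⊓ Subgroup.centralizer (K : Set G) = ⊥ := by
    rw [eq_bot_iff, ← CoprimeAction.centralizer_inf_commutator_eq_bot (A := K) hKV hcopK]
    exact fun x hx => ⟨⟨hWV hx.1, hx.2⟩, hx.1⟩
  obtain ⟨hprime, hcard, hc⟩ := CfsgLib.PrimeAction.frobenius_on_nilpotent K R W hK1 hR1 hKR hRK hfrob hW1 hWn hKW hRW
    (hcop.coprime_dvd_right (Subgroup.card_dvd_of_le hWV)) hCW fun x hx hx1 => by
      apply le_antisymm
      · exact le_inf inf_le_left ((inf_le_inf_right _ hWV).trans ((hpr x hx hx1).le.trans inf_le_right))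
      · refine inf_le_inf_left _ ?_
        exact Subgroup.centralizer_le (Set.singleton_subset_iff.2 hx)
  refine ⟨hprime, Subgroup.le_centralizer_iff.1 ?_, fun h => hW1 ?_⟩
  swap
  · have hb : W ⊓ Subgroup.centralizer (R : Set G) = ⊥ := le_bot_iff.1 (h ▸ inf_le_inf_right _ hWV)
    rw [hb, Subgroup.card_bot, one_pow] at hcard
    exact Subgroup.card_eq_one.1 hcard
  rw [← hsup]
  refine sup_le (Subgroup.le_centralizer_iff.1 (hc ?_)) (inf_le_right.trans (Subgroup.centralizer_le (Subgroup.commutator_le_self K)))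
  haveI := hcyc
  exact Subgroup.isCyclic_of_le (inf_le_inf_right _ hWV)

theorem frobenius_on_pgroup {q : ℕ} [hq : Fact q.Prime] {K R Q : Subgroup G} (hQ : IsPGroup q Q) (hR1 : R ≠ ⊥)
    (hKR : K ⊓ R = ⊥)
    (hRK : R ≤ Subgroup.normalizer (K : Set G)) (hfrob : ∀ r ∈ R, r ≠ 1 → K ⊓ Subgroup.centralizer ({r} : Set G) = ⊥)
    (hKQ : K ≤ Subgroup.normalizer (Q : Set G)) (hRQ : R ≤ Subgroup.normalizer (Q : Set G))
    (hcop : (Nat.card ↥(K ⊔ R)).Coprime (Nat.card Q)) (hnc : ¬ K ≤ Subgroup.centralizer (Q : Set G))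
    (hpr : ∀ x ∈ R, x ≠ 1 → Q ⊓ Subgroup.centralizer ({x} : Set G) = Q ⊓ Subgroup.centralizer (R : Set G))
    (hcyc : IsCyclic ↥(Q ⊓ Subgroup.centralizer (R : Set G))) :
    (Nat.card R).Prime ∧ ⁅K, K⁆ ≤ Subgroup.centralizer (Q : Set G) ∧
      ¬ Q ⊓ Subgroup.centralizer (R : Set G) ≤ (frattini Q).map Q.subtype := by
  set N := Subgroup.normalizer (Q : Set G) with hN
  set Ψ := (frattini Q).map Q.subtype with hΨ
  have hQN : Q ≤ N := Subgroup.le_normalizer
  have hΨQ : Ψ ≤ Q := Subgroup.map_subtype_le _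
  have hNΨ : N ≤ Subgroup.normalizer (Ψ : Set G) := by
    rw [Subgroup.le_normalizer_iff]
    rintro g hg _ ⟨w, hw, rfl⟩
    exact ⟨Q.normalizerMonoidHom ⟨g, hg⟩ w,
      (Subgroup.characteristic_iff_map_le.1 (inferInstance : (frattini Q).Characteristic) _) ⟨w, hw, rfl⟩, rfl⟩
  haveI : (Ψ.subgroupOf N).Normal :=
    (Subgroup.normal_subgroupOf_iff_le_normalizer (hΨQ.trans hQN)).2 hNΨ
  let π := QuotientGroup.mk' (Ψ.subgroupOf N)
  have hker : ∀ {g : N}, π g = 1 ↔ (g : G) ∈ Ψ := fun {g} => by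
    rw [← MonoidHom.mem_ker, QuotientGroup.ker_mk', Subgroup.mem_subgroupOf]
  have hKRN : K ⊔ R ≤ N := sup_le hKQ hRQ
  have hdisj : (K ⊔ R) ⊓ Q = ⊥ := Subgroup.inf_eq_bot_of_coprime hcop
  have hinj : ∀ a b : N, (a : G) ∈ K ⊔ R → (b : G) ∈ K ⊔ R → π a = π b → a = b := fun a b ha hb h => by
    have h1 : π (a⁻¹ * b) = 1 := by rw [map_mul, map_inv, h, inv_mul_cancel]
    have h2 : ((a⁻¹ * b : N) : G) ∈ (K ⊔ R) ⊓ Q :=
      ⟨(K ⊔ R).mul_mem ((K ⊔ R).inv_mem ha) hb, hΨQ (hker.1 h1)⟩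
    rw [hdisj, Subgroup.mem_bot] at h2
    exact inv_mul_eq_one.1 (Subtype.ext h2)
  set V := (Q.subgroupOf N).map π with hV
  set K' := (K.subgroupOf N).map π with hK'
  set R' := (R.subgroupOf N).map π with hR'
  haveI hVc : IsMulCommutative V := by
    refine ⟨⟨?_⟩⟩
    rintro ⟨_, a, ha, rfl⟩ ⟨_, b, hb, rfl⟩
    refine Subtype.ext ?_
    show π a * π b = π b * π a
    rw [← commutatorElement_eq_one_iff_mul_comm, ← map_commutatorElement, hker]
    exact ⟨⁅(⟨a, ha⟩ : Q), ⟨b, hb⟩⁆, CoprimeAction.commutator_le_frattini' hQ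
      (Subgroup.commutator_mem_commutator (Subgroup.mem_top _) (Subgroup.mem_top _)), rfl⟩
  have hnorm : ∀ {A B : Subgroup G}, A ≤ N → A ≤ Subgroup.normalizer (B : Set G) →
      (A.subgroupOf N).map π ≤ Subgroup.normalizer ((B.subgroupOf N).map π : Set (N ⧸ Ψ.subgroupOf N)) := by
    intro A B hA hB
    refine (Subgroup.map_mono ?_).trans (Subgroup.le_normalizer_map π)
    rw [Subgroup.le_normalizer_iff]
    exact fun a ha b hb => (Subgroup.le_normalizer_iff.1 hB) _ ha _ hb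
  have hdvd : ∀ {A : Subgroup G}, A ≤ N → Nat.card ↥((A.subgroupOf N).map π) ∣ Nat.card A := fun hA => by
    rw [← Nat.card_congr (Subgroup.subgroupOfEquivOfLe hA).toEquiv]
    exact Subgroup.card_map_dvd _ _
  have hcop' : (Nat.card ↥(K' ⊔ R')).Coprime (Nat.card V) := by
    refine (hcop.coprime_dvd_left ?_).coprime_dvd_right (hdvd hQN)
    rw [hK', hR', ← Subgroup.map_sup, ← Subgroup.subgroupOf_sup hKQ hRQ]
    exact hdvd hKRN
  have hR1' : R' ≠ ⊥ := fun h => hR1 (le_bot_iff.1 fun r hr => by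
    have h1 : π ⟨r, hRQ hr⟩ = π 1 := by
      rw [map_one, ← Subgroup.mem_bot, ← h]; exact ⟨_, Subgroup.mem_subgroupOf.2 hr, rfl⟩
    exact Subgroup.mem_bot.2 (congrArg Subtype.val (hinj _ _ (Subgroup.mem_sup_right hr) (one_mem _) h1)))
  have hKR' : K' ⊓ R' = ⊥ := by
    rw [eq_bot_iff]
    rintro _ ⟨⟨a, ha, rfl⟩, b, hb, hab⟩
    have h := hinj b a (Subgroup.mem_sup_right hb) (Subgroup.mem_sup_left ha) hab
    subst h
    have h1 : ((b : N) : G) ∈ K ⊓ R := ⟨ha, hb⟩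
    rw [hKR, Subgroup.mem_bot] at h1
    rw [show b = 1 from Subtype.ext h1, map_one]
    exact one_mem _
  have hfrob' : ∀ r ∈ R', r ≠ 1 → K' ⊓ Subgroup.centralizer ({r} : Set (N ⧸ Ψ.subgroupOf N)) = ⊥ := by
    rintro _ ⟨r, hr, rfl⟩ hr1
    rw [eq_bot_iff]
    rintro _ ⟨⟨k, hk, rfl⟩, hkc⟩
    have h := Subgroup.mem_centralizer_singleton_iff.1 hkc
    rw [← map_mul, ← map_mul] at h
    have h2 := hinj (k * r) (r * k) (mul_mem (Subgroup.mem_sup_left hk) (Subgroup.mem_sup_right hr))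
      (mul_mem (Subgroup.mem_sup_right hr) (Subgroup.mem_sup_left hk)) h
    have h3 : (k : G) ∈ K ⊓ Subgroup.centralizer ({(r : G)} : Set G) :=
      ⟨hk, Subgroup.mem_centralizer_singleton_iff.2 (congrArg Subtype.val h2)⟩
    rw [hfrob (r : G) hr (fun e => hr1 (by rw [show r = 1 from Subtype.ext e, map_one])), Subgroup.mem_bot] at h3
    rw [show k = 1 from Subtype.ext h3, map_one]
    exact one_mem _
  have hΨp : IsPGroup q Ψ := hQ.to_le hΨQ
  have hlift : ∀ A : Subgroup G, A ≤ R → ∀ m : N, (m : G) ∈ Q → (∀ a : N, (a : G) ∈ A → π a * π m = π m * π a) →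
      ∃ m' : N, (m' : G) ∈ Q ∧ (m' : G) ∈ Subgroup.centralizer (A : Set G) ∧ π m' = π m := by
    intro A hA m hm hc
    have hAN : A ≤ N := hA.trans hRQ
    obtain ⟨n, hn, hnm⟩ := CoprimeAction.exists_mem_centralizer (hAN.trans hNΨ)
      ((hcop.coprime_dvd_left (Subgroup.card_dvd_of_le (hA.trans le_sup_right))).coprime_dvd_right
        (Subgroup.card_dvd_of_le hΨQ))
      (Or.inr (haveI := hΨp.isNilpotent; inferInstance)) (k := (m : G)) fun x hx => by
        have h := hc ⟨x, hAN hx⟩ hx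
        rw [← commutatorElement_eq_one_iff_mul_comm, ← map_commutatorElement, hker] at h
        exact h
    refine ⟨⟨n * (m : G), N.mul_mem (hQN (hΨQ hn)) m.2⟩, Q.mul_mem (hΨQ hn) hm, hnm, ?_⟩
    rw [show (⟨n * (m : G), N.mul_mem (hQN (hΨQ hn)) m.2⟩ : N) = ⟨n, hQN (hΨQ hn)⟩ * m from rfl, map_mul,
      (hker (g := ⟨n, hQN (hΨQ hn)⟩)).2 hn, one_mul]
  have hpr' : ∀ x ∈ R', x ≠ 1 → V ⊓ Subgroup.centralizer ({x} : Set (N ⧸ Ψ.subgroupOf N)) =
      V ⊓ Subgroup.centralizer (R' : Set (N ⧸ Ψ.subgroupOf N)) := by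
    rintro _ ⟨x, hx, rfl⟩ hx1
    refine le_antisymm ?_ (inf_le_inf_left _ (Subgroup.centralizer_le (Set.singleton_subset_iff.2 ⟨x, hx, rfl⟩)))
    rintro _ ⟨⟨m, hm, rfl⟩, hmc⟩
    obtain ⟨m', hm', hc', he⟩ := hlift (Subgroup.zpowers (x : G)) (Subgroup.zpowers_le.2 hx) m hm fun a ha => by
      obtain ⟨i, hi⟩ := Subgroup.mem_zpowers_iff.1 ha
      rw [show a = x ^ i from Subtype.ext (hi.symm.trans (by push_cast; rfl)), map_zpow]
      exact ((show Commute (π m) (π x) from Subgroup.mem_centralizer_singleton_iff.1 hmc).symm.zpow_left i).eq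
    have h2 : (m' : G) ∈ Q ⊓ Subgroup.centralizer ({(x : G)} : Set G) :=
      ⟨hm', Subgroup.centralizer_le (Set.singleton_subset_iff.2 (Subgroup.mem_zpowers _)) hc'⟩
    rw [hpr (x : G) hx (fun e => hx1 (by rw [show x = 1 from Subtype.ext e, map_one]))] at h2
    refine Subgroup.mem_inf.2 ⟨⟨m, hm, rfl⟩, Subgroup.mem_centralizer_iff.2 ?_⟩
    rintro _ ⟨r, hr, rfl⟩
    rw [← he, ← map_mul, ← map_mul]
    exact congrArg π (Subtype.ext (Subgroup.mem_centralizer_iff.1 h2.2 r hr))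
  have hcyc' : IsCyclic ↥(V ⊓ Subgroup.centralizer (R' : Set (N ⧸ Ψ.subgroupOf N))) := by
    haveI := hcyc
    set C := (Q ⊓ Subgroup.centralizer (R : Set G)).subgroupOf N with hC
    haveI : IsCyclic C := isCyclic_of_surjective (Subgroup.subgroupOfEquivOfLe (inf_le_left.trans hQN)).symm
      (Subgroup.subgroupOfEquivOfLe (inf_le_left.trans hQN)).symm.surjective
    haveI : IsCyclic ↥(C.map π) := isCyclic_of_surjective (π.subgroupMap C) (π.subgroupMap_surjective C)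
    refine Subgroup.isCyclic_of_le (H' := C.map π) ?_
    rintro _ ⟨⟨m, hm, rfl⟩, hmc⟩
    obtain ⟨m', hm', hc', he⟩ := hlift R le_rfl m hm fun a ha =>
      Subgroup.mem_centralizer_iff.1 hmc (π a) ⟨a, ha, rfl⟩
    exact ⟨m', ⟨hm', hc'⟩, he⟩
  have hback : ∀ (A : Subgroup G) (hA : A ≤ N), (Nat.card A).Coprime (Nat.card Q) →
      (A.subgroupOf N).map π ≤ Subgroup.centralizer (V : Set (N ⧸ Ψ.subgroupOf N)) →
      A ≤ Subgroup.centralizer (Q : Set G) := fun A hA hc h => by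
    refine CoprimeAction.le_centralizer_of_frattini
      (hc.coprime_dvd_right (Subgroup.card_subgroup_dvd_card _)) fun a ha k hk => ?_
    have h3 := Subgroup.mem_centralizer_iff.1 (h ⟨⟨a, hA ha⟩, Subgroup.mem_subgroupOf.2 ha, rfl⟩)
      (π ⟨k, hQN hk⟩) ⟨_, Subgroup.mem_subgroupOf.2 hk, rfl⟩
    rw [eq_comm, ← commutatorElement_eq_one_iff_mul_comm, ← map_commutatorElement, hker] at h3
    exact h3
  have hcopK : (Nat.card K).Coprime (Nat.card Q) := hcop.coprime_dvd_left (Subgroup.card_dvd_of_le le_sup_left)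
  obtain ⟨hprime, hc, hne⟩ := frobenius_on_abelian hR1' hKR' (hnorm hRQ hRK) hfrob' (hnorm hKQ hKQ) (hnorm hRQ hRQ)
    hcop' (fun h => hnc (hback K hKQ hcopK h)) hpr' hcyc'
  have hcard : Nat.card R' = Nat.card R := by
    refine (Nat.card_congr (Equiv.ofBijective (fun r : R => (⟨π ⟨r, hRQ r.2⟩, ⟨_, r.2, rfl⟩⟩ : R')) ⟨?_, ?_⟩)).symm
    · intro a b h
      exact Subtype.ext (congrArg (fun z : N => (z : G)) (hinj _ _ (Subgroup.mem_sup_right a.2) (Subgroup.mem_sup_right b.2)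
        (congrArg Subtype.val h)))
    · rintro ⟨_, r, hr, rfl⟩
      exact ⟨⟨r, hr⟩, rfl⟩
  refine ⟨hcard ▸ hprime, hback _ ((Subgroup.commutator_le_self K).trans hKQ)
    (hcopK.coprime_dvd_left (Subgroup.card_dvd_of_le (Subgroup.commutator_le_self K))) (le_trans ?_ hc),
    fun hle => hne ?_⟩
  swap
  · rw [eq_bot_iff]
    rintro _ ⟨⟨m, hm, rfl⟩, hmc⟩
    obtain ⟨m', hm', hc', he⟩ := hlift R le_rfl m hm fun a ha =>
      Subgroup.mem_centralizer_iff.1 hmc (π a) ⟨a, ha, rfl⟩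
    rw [Subgroup.mem_bot, ← he]
    exact hker.2 (hle ⟨hm', hc'⟩)
  intro y hy
  obtain ⟨z, hz, rfl⟩ := hy
  rw [hK', ← Subgroup.map_commutator]
  refine Subgroup.mem_map_of_mem π ?_
  have h := Subgroup.map_commutator (K.subgroupOf N) (K.subgroupOf N) N.subtype
  rw [Subgroup.map_subgroupOf_eq_of_le hKQ] at h
  obtain ⟨w, hw, hwz⟩ := h.symm ▸ (Subgroup.mem_subgroupOf.1 hz)
  exact N.subtype_injective hwz ▸ hw

end CfsgLib.BGFifteen
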