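import Cfsg.Agent.PrimeAction.FrobeniusNilpotent
import Cfsg.Agent.CoprimeAction.Basic
import Cfsg.Agent.BGFifteen.FrobeniusPGroup

/-!
A layer `N / N₀` on which the kernel of a Frobenius group has no fixed points.
-/

set_option autoImplicit false
set_option linter.unusedSectionVars false
set_option linter.style.haveILetI false

namespace CfsgLib.BGFifteen

universe u

variable {G : Type u} [Group G] [Finite G]

theorem layer_card {q : ℕ} [hq : Fact q.Prime] {D R N N₀ W : Subgroup G} (hN0 : N₀ ≤ N) (hNW : N ≤ W)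
    (hDW : D ≤ W) (hRW : R ≤ W) (hW0 : W ≤ Subgroup.normalizer (N₀ : Set G)) (hNq : IsPGroup q N)
    (hDN : D ≤ Subgroup.normalizer (N : Set G)) (hRN : R ≤ Subgroup.normalizer (N : Set G))
    (hcop : (Nat.card ↥(D ⊔ R)).Coprime (Nat.card N)) (hRp : (Nat.card R).Prime) (hDR : D ⊓ R = ⊥)
    (hRD : R ≤ Subgroup.normalizer (D : Set G))
    (hfrob : ∀ r ∈ R, r ≠ 1 → D ⊓ Subgroup.centralizer ({r} : Set G) = ⊥)
    (hfix : N ⊓ Subgroup.centralizer (D : Set G) ≤ N₀) (hS : Nat.card ↥(N ⊓ Subgroup.centralizer (R : Set G)) ∣ q)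
    (hne : N₀ ≠ N) : Nat.card N = Nat.card N₀ * q ^ Nat.card R := by
  haveI : (N₀.subgroupOf W).Normal := Subgroup.normal_subgroupOf_of_le_normalizer hW0
  let π := QuotientGroup.mk' (N₀.subgroupOf W)
  have hker : ∀ {g : W}, π g = 1 ↔ (g : G) ∈ N₀ := fun {g} => by
    rw [← MonoidHom.mem_ker, QuotientGroup.ker_mk', Subgroup.mem_subgroupOf]
  have hdisj : (D ⊔ R) ⊓ N = ⊥ := Subgroup.inf_eq_bot_of_coprime hcop
  have hDRW : D ⊔ R ≤ W := sup_le hDW hRW
  have hinj : ∀ a b : W, (a : G) ∈ D ⊔ R → (b : G) ∈ D ⊔ R → π a = π b → a = b := fun a b ha hb h => by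
    have h1 : π (a⁻¹ * b) = 1 := by rw [map_mul, map_inv, h, inv_mul_cancel]
    have h2 : ((a⁻¹ * b : W) : G) ∈ (D ⊔ R) ⊓ N :=
      ⟨(D ⊔ R).mul_mem ((D ⊔ R).inv_mem ha) hb, hN0 (hker.1 h1)⟩
    rw [hdisj, Subgroup.mem_bot] at h2
    exact inv_mul_eq_one.1 (Subtype.ext h2)
  set V := (N.subgroupOf W).map π with hV
  set D' := (D.subgroupOf W).map π with hD'
  set R' := (R.subgroupOf W).map π with hR'
  have hnorm : ∀ {A B : Subgroup G}, A ≤ Subgroup.normalizer (B : Set G) →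
      (A.subgroupOf W).map π ≤ Subgroup.normalizer ((B.subgroupOf W).map π : Set (W ⧸ N₀.subgroupOf W)) := by
    intro A B hB
    refine (Subgroup.map_mono ?_).trans (Subgroup.le_normalizer_map π)
    rw [Subgroup.le_normalizer_iff]
    exact fun a ha b hb => (Subgroup.le_normalizer_iff.1 hB) _ ha _ hb
  have hdvd : ∀ {A : Subgroup G}, A ≤ W → Nat.card ↥((A.subgroupOf W).map π) ∣ Nat.card A := fun hA => by
    rw [← Nat.card_congr (Subgroup.subgroupOfEquivOfLe hA).toEquiv]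
    exact Subgroup.card_map_dvd _ _
  have hlift : ∀ A : Subgroup G, A ≤ D ⊔ R → ∀ m : W, (m : G) ∈ N →
      (∀ a : W, (a : G) ∈ A → π a * π m = π m * π a) →
      ∃ m' : W, (m' : G) ∈ N ∧ (m' : G) ∈ Subgroup.centralizer (A : Set G) ∧ π m' = π m := by
    intro A hA m hm hc
    have hAW : A ≤ W := hA.trans hDRW
    obtain ⟨n, hn, hnm⟩ := CoprimeAction.exists_mem_centralizer (hAW.trans hW0)
      ((hcop.coprime_dvd_left (Subgroup.card_dvd_of_le hA)).coprime_dvd_right (Subgroup.card_dvd_of_le hN0))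
      (Or.inr (haveI := (hNq.to_le hN0).isNilpotent; inferInstance)) (k := (m : G)) fun x hx => by
        have h := hc ⟨x, hAW hx⟩ hx
        rw [← commutatorElement_eq_one_iff_mul_comm, ← map_commutatorElement, hker] at h
        exact h
    refine ⟨⟨n * (m : G), W.mul_mem (hNW (hN0 hn)) m.2⟩, N.mul_mem (hN0 hn) hm, hnm, ?_⟩
    rw [show (⟨n * (m : G), W.mul_mem (hNW (hN0 hn)) m.2⟩ : W) = ⟨n, hNW (hN0 hn)⟩ * m from rfl, map_mul,
      (hker (g := ⟨n, hNW (hN0 hn)⟩)).2 hn, one_mul]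
  have hVcard : Nat.card V = N₀.relIndex N := by
    rw [hV, ← Subgroup.relIndex_bot_left, ← Subgroup.relIndex_comap, MonoidHom.comap_bot, QuotientGroup.ker_mk',
      Subgroup.relIndex_subgroupOf hNW]
  have hmul : Nat.card N₀ * Nat.card V = Nat.card N := by
    rw [hVcard, ← Subgroup.relIndex_bot_left, ← Subgroup.relIndex_bot_left]
    exact Subgroup.relIndex_mul_relIndex _ _ _ bot_le hN0
  have hV1 : V ≠ ⊥ := fun h => hne (le_antisymm hN0 (Subgroup.relIndex_eq_one.1 (by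
    rw [← hVcard, h, Subgroup.card_bot])))
  have hR1 : R' ≠ ⊥ := fun h => by
    obtain ⟨r, hr, hr1⟩ := (Subgroup.bot_or_exists_ne_one R).resolve_left fun e =>
      hRp.one_lt.ne (by rw [e, Subgroup.card_bot])
    refine hr1 ?_
    have h1 : π ⟨r, hRW hr⟩ = π 1 := by
      rw [map_one, ← Subgroup.mem_bot, ← h]
      exact ⟨_, Subgroup.mem_subgroupOf.2 hr, rfl⟩
    exact congrArg (fun z : W => (z : G)) (hinj _ _ (Subgroup.mem_sup_right hr) (one_mem _) h1)
  have hVD : V ⊓ Subgroup.centralizer (D' : Set (W ⧸ N₀.subgroupOf W)) = ⊥ := by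
    rw [eq_bot_iff]
    rintro _ ⟨⟨m, hm, rfl⟩, hmc⟩
    obtain ⟨m', hm', hc', he⟩ := hlift D le_sup_left m hm fun a ha =>
      Subgroup.mem_centralizer_iff.1 hmc (π a) ⟨a, ha, rfl⟩
    rw [Subgroup.mem_bot, ← he]
    exact hker.2 (hfix ⟨hm', hc'⟩)
  have hD1 : D' ≠ ⊥ := fun h => hV1 (by
    rw [← hVD, h]
    refine (inf_eq_left.2 fun x _ => Subgroup.mem_centralizer_iff.2 fun y hy => ?_).symm
    rw [Subgroup.mem_bot.1 hy, one_mul, mul_one])
  have hDR' : D' ⊓ R' = ⊥ := by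
    rw [eq_bot_iff]
    rintro _ ⟨⟨a, ha, rfl⟩, b, hb, hab⟩
    have h := hinj b a (Subgroup.mem_sup_right hb) (Subgroup.mem_sup_left ha) hab
    subst h
    have h1 : ((b : W) : G) ∈ D ⊓ R := ⟨ha, hb⟩
    rw [hDR, Subgroup.mem_bot] at h1
    rw [show b = 1 from Subtype.ext h1, map_one]
    exact one_mem _
  have hfrob' : ∀ r ∈ R', r ≠ 1 → D' ⊓ Subgroup.centralizer ({r} : Set (W ⧸ N₀.subgroupOf W)) = ⊥ := by
    rintro _ ⟨r, hr, rfl⟩ hr1
    rw [eq_bot_iff]
    rintro _ ⟨⟨k, hk, rfl⟩, hkc⟩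
    have h := Subgroup.mem_centralizer_singleton_iff.1 hkc
    rw [← map_mul, ← map_mul] at h
    have h2 := hinj (k * r) (r * k) (mul_mem (Subgroup.mem_sup_left hk) (Subgroup.mem_sup_right hr))
      (mul_mem (Subgroup.mem_sup_right hr) (Subgroup.mem_sup_left hk)) h
    have h3 : (k : G) ∈ D ⊓ Subgroup.centralizer ({(r : G)} : Set G) :=
      ⟨hk, Subgroup.mem_centralizer_singleton_iff.2 (congrArg Subtype.val h2)⟩
    rw [hfrob (r : G) hr (fun e => hr1 (by rw [show r = 1 from Subtype.ext e, map_one])), Subgroup.mem_bot] at h3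
    rw [show k = 1 from Subtype.ext h3, map_one]
    exact one_mem _
  have hcop' : (Nat.card ↥(D' ⊔ R')).Coprime (Nat.card V) := by
    refine (hcop.coprime_dvd_left ?_).coprime_dvd_right (hdvd hNW)
    rw [hD', hR', ← Subgroup.map_sup, ← Subgroup.subgroupOf_sup hDW hRW]
    exact hdvd hDRW
  have hRc : Nat.card R' = Nat.card R := by
    have h := (Nat.dvd_prime hRp).1 (hdvd hRW)
    exact h.resolve_left fun e => hR1 (Subgroup.card_eq_one.1 e)
  have hpr : ∀ x ∈ R', x ≠ 1 → V ⊓ Subgroup.centralizer ({x} : Set (W ⧸ N₀.subgroupOf W)) =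
      V ⊓ Subgroup.centralizer (R' : Set (W ⧸ N₀.subgroupOf W)) := by
    intro x hx hx1
    haveI : Fact (Nat.card R').Prime := ⟨hRc.symm ▸ hRp⟩
    have hz : Subgroup.zpowers x = R' := by
      refine Subgroup.eq_of_le_of_card_ge (Subgroup.zpowers_le.2 hx) ?_
      rw [Nat.card_zpowers]
      rcases (Nat.dvd_prime (hRc.symm ▸ hRp)).1 (Subgroup.orderOf_dvd_natCard R' hx) with e | e
      · exact absurd (orderOf_eq_one_iff.1 e) hx1
      · exact e.ge
    rw [← hz, ← Subgroup.centralizer_closure, ← Subgroup.zpowers_eq_closure]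
  obtain ⟨-, hcard, -⟩ := CfsgLib.PrimeAction.frobenius_on_nilpotent D' R' V hD1 hR1 hDR' (hnorm hRD) hfrob' hV1
    ((hNq.of_equiv (Subgroup.subgroupOfEquivOfLe hNW).symm).map π).isNilpotent (hnorm hDN) (hnorm hRN) hcop' hVD hpr
  have hCR : Nat.card ↥(V ⊓ Subgroup.centralizer (R' : Set (W ⧸ N₀.subgroupOf W))) = q := by
    have hle : V ⊓ Subgroup.centralizer (R' : Set (W ⧸ N₀.subgroupOf W)) ≤
        ((N ⊓ Subgroup.centralizer (R : Set G)).subgroupOf W).map π := by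
      rintro _ ⟨⟨m, hm, rfl⟩, hmc⟩
      obtain ⟨m', hm', hc', he⟩ := hlift R le_sup_right m hm fun a ha =>
        Subgroup.mem_centralizer_iff.1 hmc (π a) ⟨a, ha, rfl⟩
      exact ⟨m', ⟨hm', hc'⟩, he⟩
    rcases (Nat.dvd_prime hq.out).1 ((Subgroup.card_dvd_of_le hle).trans ((hdvd (inf_le_left.trans hNW)).trans hS)) with e | e
    · exfalso
      rw [e, one_pow] at hcard
      exact hV1 (Subgroup.card_eq_one.1 hcard)
    · exact e
  rw [hCR, hRc] at hcard
  rw [← hmul, hcard]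

end CfsgLib.BGFifteen
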